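import Cfsg.Agent.Lib.Helper60.G22.Mat2

/-!
A concrete field with nine elements (`F₃[i]` with `i² = -1`; the code of `a + b i` is
`a + 3 b`), and packed 3 × 3 matrices over it as a model for the generic certificate layer.
-/

set_option autoImplicit false

namespace Cfsg.Agent.Lib.Helper60.G22

open Cfsg.Agent.Lib.Helper60.Cert
open Cfsg.Agent.Lib.Helper60.J1 (horner horner_lt horner_digit)

/-- the field with nine elements -/
def F9 : Type := Fin 9

instance : DecidableEq F9 := inferInstanceAs (DecidableEq (Fin 9))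
instance : Fintype F9 := inferInstanceAs (Fintype (Fin 9))

/-- the addition table: entry `9 u + v` has four bits -/
def ATBL : ℕ := 8986690708024339884259668388453865091868182506470258411551265922896781674643265104972283578167824
/-- the multiplication table -/
def MTBL : ℕ := 12992295474418726299168584010125499800446975643965808714274855111902658395364003326119775607717888
/-- the table of negatives -/
def NTBL : ℕ := 18580267296
/-- the table of inverses -/
def ITBL : ℕ := 32267133456

/-- addition of codes -/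
def fa (u v : ℕ) : ℕ :=
  Nat.mod (Nat.land (Nat.shiftRight ATBL (Nat.mul 4 (Nat.add (Nat.mul 9 u) v))) 15) 9
/-- multiplication of codes -/
def fm (u v : ℕ) : ℕ :=
  Nat.mod (Nat.land (Nat.shiftRight MTBL (Nat.mul 4 (Nat.add (Nat.mul 9 u) v))) 15) 9

theorem mod9_lt (n : ℕ) : Nat.mod n 9 < 9 := Nat.mod_lt _ (by norm_num)

/-- the element with a given code -/
def cF (n : ℕ) : F9 := (⟨Nat.mod n 9, mod9_lt n⟩ : Fin 9)
/-- the code of an element -/
def vF (a : F9) : ℕ := Fin.val (show Fin 9 from a)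

def add9 (a b : F9) : F9 := cF (fa (vF a) (vF b))
def mul9 (a b : F9) : F9 := cF (fm (vF a) (vF b))
def neg9 (a : F9) : F9 := cF (Nat.land (Nat.shiftRight NTBL (Nat.mul 4 (vF a))) 15)
def inv9 (a : F9) : F9 := cF (Nat.land (Nat.shiftRight ITBL (Nat.mul 4 (vF a))) 15)

theorem add9_assoc : ∀ a b c : F9, add9 (add9 a b) c = add9 a (add9 b c) := by decide +kernel
theorem add9_comm : ∀ a b : F9, add9 a b = add9 b a := by decide +kernel
theorem zero_add9 : ∀ a : F9, add9 (cF 0) a = a := by decide +kernel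
theorem add9_zero : ∀ a : F9, add9 a (cF 0) = a := by decide +kernel
theorem neg9_add9 : ∀ a : F9, add9 (neg9 a) a = cF 0 := by decide +kernel
theorem mul9_assoc : ∀ a b c : F9, mul9 (mul9 a b) c = mul9 a (mul9 b c) := by decide +kernel
theorem mul9_comm : ∀ a b : F9, mul9 a b = mul9 b a := by decide +kernel
theorem one_mul9 : ∀ a : F9, mul9 (cF 1) a = a := by decide +kernel
theorem mul9_one : ∀ a : F9, mul9 a (cF 1) = a := by decide +kernel
theorem zero_mul9 : ∀ a : F9, mul9 (cF 0) a = cF 0 := by decide +kernel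
theorem mul9_zero : ∀ a : F9, mul9 a (cF 0) = cF 0 := by decide +kernel
theorem mul9_add9 : ∀ a b c : F9, mul9 a (add9 b c) = add9 (mul9 a b) (mul9 a c) := by
  decide +kernel
theorem add9_mul9 : ∀ a b c : F9, mul9 (add9 a b) c = add9 (mul9 a c) (mul9 b c) := by
  decide +kernel
theorem mul9_inv9 : ∀ a : F9, a ≠ cF 0 → mul9 a (inv9 a) = cF 1 := by decide +kernel

instance : Zero F9 := ⟨cF 0⟩
instance : One F9 := ⟨cF 1⟩
instance : Add F9 := ⟨add9⟩
instance : Mul F9 := ⟨mul9⟩
instance : Neg F9 := ⟨neg9⟩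
instance : Sub F9 := ⟨fun a b => add9 a (neg9 b)⟩

instance : CommRing F9 where
  add_assoc := add9_assoc
  zero_add := zero_add9
  add_zero := add9_zero
  nsmul := nsmulRec
  sub_eq_add_neg := fun _ _ => rfl
  zsmul := zsmulRec
  neg_add_cancel := neg9_add9
  add_comm := add9_comm
  left_distrib := mul9_add9
  right_distrib := add9_mul9
  zero_mul := zero_mul9
  mul_zero := mul9_zero
  mul_assoc := mul9_assoc
  one_mul := one_mul9
  mul_one := mul9_one
  mul_comm := mul9_comm

instance : Field F9 where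
  inv := inv9
  exists_pair_ne := ⟨cF 0, cF 1, by decide⟩
  mul_inv_cancel := mul9_inv9
  inv_zero := by decide +kernel
  nnqsmul := _
  nnqsmul_def := fun _ _ => rfl
  qsmul := _
  qsmul_def := fun _ _ => rfl

theorem card_F9 : Fintype.card F9 = 9 := Fintype.card_fin 9

theorem add9_def (a b : F9) : a + b = add9 a b := rfl
theorem mul9_def (a b : F9) : a * b = mul9 a b := rfl

theorem vF_cF {u : ℕ} (hu : u < 9) : vF (cF u) = u := Nat.mod_eq_of_lt hu

theorem cF_fa {u v : ℕ} (hu : u < 9) (hv : v < 9) : cF (fa u v) = cF u + cF v := by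
  rw [add9_def, add9, vF_cF hu, vF_cF hv]

theorem cF_fm {u v : ℕ} (hu : u < 9) (hv : v < 9) : cF (fm u v) = cF u * cF v := by
  rw [mul9_def, mul9, vF_cF hu, vF_cF hv]

theorem fm_lt (u v : ℕ) : fm u v < 9 := mod9_lt _

theorem fa_lt (u v : ℕ) : fa u v < 9 := mod9_lt _

/-! ### packed 3 × 3 matrices -/

abbrev MatS := Matrix (Fin 3) (Fin 3) F9

/-- the digit number `k` (four bits, reduced modulo 9) -/
def dS (x k : ℕ) : ℕ := Nat.mod (Nat.land (Nat.shiftRight x (Nat.mul 4 k)) 15) 9

theorem dS_lt (x k : ℕ) : dS x k < 9 := mod9_lt _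

theorem dS_eq (x k : ℕ) : dS x k = x / 16 ^ k % 16 % 9 := by
  unfold dS
  change ((x >>> (4 * k)) &&& 15) % 9 = _
  rw [Nat.shiftRight_eq_div_pow, pow_mul]
  congr 1
  exact Nat.and_two_pow_sub_one_eq_mod _ 4

/-- the matrix coded by a natural number -/
def toS (x : ℕ) : MatS := Matrix.of fun i j => cF (dS x (3 * i.val + j.val))

/-- entry `(i, j)` of the product -/
def eS (x y i j : ℕ) : ℕ :=
  fa (fa (fm (dS x (Nat.mul 3 i)) (dS y j))
    (fm (dS x (Nat.add (Nat.mul 3 i) 1)) (dS y (Nat.add 3 j))))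
    (fm (dS x (Nat.add (Nat.mul 3 i) 2)) (dS y (Nat.add 6 j)))

/-- the packed product -/
def mulS (x y : ℕ) : ℕ := horner 16 [eS x y 0 0, eS x y 0 1, eS x y 0 2, eS x y 1 0, eS x y 1 1, eS x y 1 2, eS x y 2 0, eS x y 2 1, eS x y 2 2]

/-- the packed identity -/
def oneS : ℕ := 4295032833

/-- the canonical form -/
def keyS (x : ℕ) : ℕ := horner 16 [dS x 0, dS x 1, dS x 2, dS x 3, dS x 4, dS x 5, dS x 6, dS x 7, dS x 8]

theorem eS_lt (x y i j : ℕ) : eS x y i j < 9 := fa_lt _ _

theorem dS_horner (l : List ℕ) (h : ∀ c ∈ l, c < 9) (k : ℕ) :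
    dS (horner 16 l) k = l.getD k 0 := by
  rw [dS_eq, horner_digit 16 l (fun c hc => lt_trans (h c hc) (by norm_num))]
  apply Nat.mod_eq_of_lt
  by_cases hk : k < l.length
  · rw [List.getD_eq_getElem _ _ hk]
    exact h _ (List.getElem_mem hk)
  · rw [List.getD_eq_default _ _ (by omega)]
    norm_num

theorem dS_mulS (x y i j : ℕ) (hi : i < 3) (hj : j < 3) :
    dS (mulS x y) (3 * i + j) = eS x y i j := by
  unfold mulS
  rw [dS_horner]
  · interval_cases i <;> interval_cases j <;>
      simp only [Nat.reduceMul, Nat.reduceAdd, List.getD_cons_succ, List.getD_cons_zero]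
  · intro c hc
    simp only [List.mem_cons, List.not_mem_nil, or_false] at hc
    rcases hc with h | h | h | h | h | h | h | h | h <;> (rw [h]; exact eS_lt _ _ _ _)

theorem toS_mulS (x y : ℕ) : toS (mulS x y) = toS x * toS y := by
  ext i j
  rw [Matrix.mul_apply, Fin.sum_univ_three]
  simp only [toS, Matrix.of_apply]
  rw [dS_mulS x y i.val j.val i.isLt j.isLt]
  have e : eS x y i.val j.val = fa (fa (fm (dS x (3 * i.val)) (dS y j.val))
      (fm (dS x (3 * i.val + 1)) (dS y (3 + j.val))))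
      (fm (dS x (3 * i.val + 2)) (dS y (6 + j.val))) := rfl
  rw [e, cF_fa (fa_lt _ _) (fm_lt _ _), cF_fa (fm_lt _ _) (fm_lt _ _),
    cF_fm (dS_lt _ _) (dS_lt _ _), cF_fm (dS_lt _ _) (dS_lt _ _), cF_fm (dS_lt _ _) (dS_lt _ _)]
  simp only [Fin.val_zero, Fin.val_one, Fin.val_two, add_zero, mul_zero, zero_add, mul_one]

theorem toS_oneS : toS oneS = 1 := by decide +kernel

theorem cF_inj {u v : ℕ} (hu : u < 9) (hv : v < 9) (h : cF u = cF v) : u = v := by
  have := congrArg vF h
  rwa [vF_cF hu, vF_cF hv] at this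

theorem keyS_eq (a b : ℕ) (h : toS a = toS b) : keyS a = keyS b := by
  have e : ∀ k < 9, dS a k = dS b k := by
    intro k hk
    have h1 := congrFun (congrFun h ⟨k / 3, by omega⟩) ⟨k % 3, Nat.mod_lt _ (by norm_num)⟩
    simp only [toS, Matrix.of_apply] at h1
    rw [Nat.div_add_mod] at h1
    exact cF_inj (dS_lt _ _) (dS_lt _ _) h1
  unfold keyS
  rw [e 0 (by norm_num), e 1 (by norm_num), e 2 (by norm_num), e 3 (by norm_num),
    e 4 (by norm_num), e 5 (by norm_num), e 6 (by norm_num), e 7 (by norm_num),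
    e 8 (by norm_num)]

/-- the model of packed matrices -/
def modelS : Model MatS where
  toM := toS
  mulP := mulS
  oneP := oneS
  key := keyS
  toM_mul := toS_mulS
  toM_one := toS_oneS
  key_eq := keyS_eq

/-- the special linear group -/
abbrev SL9 := Matrix.SpecialLinearGroup (Fin 3) F9

/-- the matrix of an element -/
def ψS : SL9 →* MatS where
  toFun g := (g : MatS)
  map_one' := rfl
  map_mul' _ _ := rfl

theorem ψS_inj : Function.Injective ψS := fun _ _ h => Subtype.ext h

theorem exists_SL9 {x : ℕ} (h : (toS x).det = 1) : ∃ g : SL9, ψS g = modelS.toM x :=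
  ⟨⟨toS x, h⟩, rfl⟩

end Cfsg.Agent.Lib.Helper60.G22
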