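import Cfsg.Prelude.Def_ChevG2
import Cfsg.Prelude.Def_ChevWords
import Cfsg.Agent.Lib.Helper60.G22.Tab
import Cfsg.Agent.Lib.Helper60.G2.Iso
import Cfsg.Agent.Lib.Helper7.B2S6

/-!
The Chevalley group `G₂(F)` over a field `F` with two elements (14 × 14 matrices) in packed form:
through a ring isomorphism `ZMod 2 ≃+* F` its generators are twelve explicit packed matrices.
-/

set_option autoImplicit false

namespace Cfsg.Agent.Lib.Helper60.G22

open Cfsg Cfsg.Lie Cfsg.Agent.Lib.Helper60.Cert Cfsg.Agent.Lib.Helper60.G2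

/-- the invertible matrices on the Chevalley basis -/
abbrev GLF (F : Type*) [Field F] := GL chevG2.Idx F

/-- numbering of the Chevalley basis -/
def e14 : chevG2.Idx ≃ Fin 14 := (finSumFinEquiv : Fin 2 ⊕ Fin 12 ≃ Fin (2 + 12))

/-- reindexing of matrices -/
def reG : Matrix chevG2.Idx chevG2.Idx (ZMod 2) →* Mat where
  toFun M := M.submatrix e14.symm e14.symm
  map_one' := Matrix.submatrix_one_equiv e14.symm
  map_mul' M N := (Matrix.submatrix_mul_equiv M N e14.symm e14.symm e14.symm).symm

theorem reG_inj : Function.Injective reG := by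
  intro M N h
  ext i j
  have := congrFun (congrFun h (e14 i)) (e14 j)
  simpa [reG] using this

/-- entries of a root element -/
def entX (r : ℕ) (t : ZMod 2) (i j : Fin 14) : ZMod 2 :=
  chevG2.x (ZMod 2) r t (e14.symm i) (e14.symm j)

/-- entries of a packed matrix -/
def entL (lit : ℕ) (i j : Fin 14) : ZMod 2 := toMat lit i j

/-- the packed form of `x_r(t)` -/
def xP (r : ℕ) (t : ZMod 2) : ℕ := if t = 0 then oneP else gN r

theorem x0_ok : ∀ t : ZMod 2, ∀ i j : Fin 14, entX 0 t i j = entL (xP 0 t) i j := by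
  decide +kernel
theorem x1_ok : ∀ t : ZMod 2, ∀ i j : Fin 14, entX 1 t i j = entL (xP 1 t) i j := by
  decide +kernel
theorem x2_ok : ∀ t : ZMod 2, ∀ i j : Fin 14, entX 2 t i j = entL (xP 2 t) i j := by
  decide +kernel
theorem x3_ok : ∀ t : ZMod 2, ∀ i j : Fin 14, entX 3 t i j = entL (xP 3 t) i j := by
  decide +kernel
theorem x4_ok : ∀ t : ZMod 2, ∀ i j : Fin 14, entX 4 t i j = entL (xP 4 t) i j := by
  decide +kernel
theorem x5_ok : ∀ t : ZMod 2, ∀ i j : Fin 14, entX 5 t i j = entL (xP 5 t) i j := by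
  decide +kernel
theorem x6_ok : ∀ t : ZMod 2, ∀ i j : Fin 14, entX 6 t i j = entL (xP 6 t) i j := by
  decide +kernel
theorem x7_ok : ∀ t : ZMod 2, ∀ i j : Fin 14, entX 7 t i j = entL (xP 7 t) i j := by
  decide +kernel
theorem x8_ok : ∀ t : ZMod 2, ∀ i j : Fin 14, entX 8 t i j = entL (xP 8 t) i j := by
  decide +kernel
theorem x9_ok : ∀ t : ZMod 2, ∀ i j : Fin 14, entX 9 t i j = entL (xP 9 t) i j := by
  decide +kernel
theorem x10_ok : ∀ t : ZMod 2, ∀ i j : Fin 14, entX 10 t i j = entL (xP 10 t) i j := by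
  decide +kernel
theorem x11_ok : ∀ t : ZMod 2, ∀ i j : Fin 14, entX 11 t i j = entL (xP 11 t) i j := by
  decide +kernel

theorem reG_x (r : ℕ) (hr : r < 12) (t : ZMod 2) :
    reG (chevG2.x (ZMod 2) r t) = toMat (xP r t) := by
  interval_cases r
  · exact Matrix.ext (x0_ok t)
  · exact Matrix.ext (x1_ok t)
  · exact Matrix.ext (x2_ok t)
  · exact Matrix.ext (x3_ok t)
  · exact Matrix.ext (x4_ok t)
  · exact Matrix.ext (x5_ok t)
  · exact Matrix.ext (x6_ok t)
  · exact Matrix.ext (x7_ok t)
  · exact Matrix.ext (x8_ok t)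
  · exact Matrix.ext (x9_ok t)
  · exact Matrix.ext (x10_ok t)
  · exact Matrix.ext (x11_ok t)

theorem x_eq_xMat {K : Type*} [Field K] (r : Fin chevG2.nroots) (t : K) :
    chevG2.x K r.val t = chevG2.xMat K r t := by
  unfold ChevalleyDatum.x
  rw [dif_pos r.isLt]

section field

variable {F : Type*} [Field F] (e : ZMod 2 ≃+* F)

/-- the entrywise map back to `ZMod 2` -/
def mapE : Matrix chevG2.Idx chevG2.Idx F →* Matrix chevG2.Idx chevG2.Idx (ZMod 2) :=
  (RingHom.mapMatrix (e.symm : F →+* ZMod 2)).toMonoidHom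

theorem mapE_apply (M : Matrix chevG2.Idx chevG2.Idx F) :
    mapE e M = M.map (e.symm : F →+* ZMod 2) := rfl

theorem mapE_inj : Function.Injective (mapE e) := by
  intro M N h
  ext i j
  have := congrFun (congrFun h i) j
  simp only [mapE_apply, Matrix.map_apply] at this
  exact e.symm.injective this

/-- the entrywise map from `ZMod 2` -/
def mapE' : Matrix chevG2.Idx chevG2.Idx (ZMod 2) →* Matrix chevG2.Idx chevG2.Idx F :=
  (RingHom.mapMatrix (e : ZMod 2 →+* F)).toMonoidHom

theorem mapE_mapE' (M : Matrix chevG2.Idx chevG2.Idx (ZMod 2)) : mapE e (mapE' e M) = M := by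
  ext i j
  simp [mapE, mapE']

/-- the packed-model homomorphism -/
def ψ : GLF F →* Mat := reG.comp ((mapE e).comp (Units.coeHom _))

theorem ψ_inj : Function.Injective (ψ e) :=
  fun _ _ h => Units.ext (mapE_inj e (reG_inj h))

theorem ψ_val (g : GLF F) : ψ e g = reG (mapE e (g : Matrix chevG2.Idx chevG2.Idx F)) := rfl

theorem mapE_xMat (r : Fin chevG2.nroots) (t : F) :
    mapE e (chevG2.xMat F r t) = chevG2.xMat (ZMod 2) r (e.symm t) := by
  rw [mapE_apply]
  exact (Cfsg.Agent.Lib.Helper7.B2.xMat_map (e.symm : F →+* ZMod 2) chevG2 r t).symm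

theorem reG_mapE_xMat (r : Fin chevG2.nroots) (t : F) :
    reG (mapE e (chevG2.xMat F r t)) = toMat (xP r.val (e.symm t)) := by
  rw [mapE_xMat, ← x_eq_xMat]
  exact reG_x r.val r.isLt _

/-- the Chevalley group is generated by the twelve packed matrices (and the identity) -/
theorem group_eq : chevG2.group F = genGrp model (ψ e) gN 13 := by
  unfold ChevalleyDatum.group genGrp
  apply le_antisymm
  · rw [Subgroup.closure_le]
    rintro g ⟨r, t, hg⟩
    have hv : ψ e g = toMat (xP r.val (e.symm t)) := by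
      rw [ψ_val, hg]; exact reG_mapE_xMat e r t
    have hr : r.val < 12 := r.isLt
    by_cases h0 : e.symm t = 0
    · refine Subgroup.subset_closure ⟨12, by norm_num, ?_⟩
      rw [hv, xP, if_pos h0]
      rfl
    · refine Subgroup.subset_closure ⟨r.val, by omega, ?_⟩
      rw [hv, xP, if_neg h0]
      rfl
  · rw [Subgroup.closure_le]
    rintro g ⟨l, hl, hg⟩
    by_cases h12 : l = 12
    · subst h12
      have : g = 1 := by
        apply ψ_inj e
        rw [hg, map_one]
        exact toMat_oneP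
      rw [this]
      exact Subgroup.one_mem _
    · have hl' : l < 12 := by omega
      apply Subgroup.subset_closure
      refine ⟨⟨l, hl'⟩, e 1, ?_⟩
      apply mapE_inj e
      apply reG_inj
      rw [← ψ_val, hg, reG_mapE_xMat, e.symm_apply_apply, xP, if_neg (by decide)]
      rfl

/-- reindexing back -/
def reG' : Mat →* Matrix chevG2.Idx chevG2.Idx (ZMod 2) where
  toFun M := M.submatrix e14 e14
  map_one' := Matrix.submatrix_one_equiv e14
  map_mul' M N := (Matrix.submatrix_mul_equiv M N e14 e14 e14).symm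

theorem reG_reG' (M : Mat) : reG (reG' M) = M := by
  ext i j
  simp [reG, reG']

/-- a packed matrix with a packed inverse is the value of an invertible matrix -/
theorem exists_of_inv {m m' : ℕ} (h1 : model.mulP m m' = model.oneP)
    (h2 : model.mulP m' m = model.oneP) : ∃ g : GLF F, ψ e g = model.toM m := by
  obtain ⟨u, hu⟩ := exists_unit_of_inv (ν := model) h1 h2
  refine ⟨Units.map ((mapE' e).comp reG') u, ?_⟩
  rw [ψ_val]
  change reG (mapE e (mapE' e (reG' (u : Mat)))) = _
  rw [mapE_mapE', reG_reG', hu]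

end field

end Cfsg.Agent.Lib.Helper60.G22
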