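import Cfsg.Prelude.Def_Classical
import Cfsg.Agent.Lib.Helper60.G22.Gens
import Cfsg.Agent.Lib.Helper60.G22.STab
import Cfsg.Agent.Lib.Helper45.HermSigma
import Cfsg.Agent.Lib.Helper45.HermCenter
import Cfsg.Agent.Lib.Helper5.OrbitHom

/-!
The derived subgroup of `G₂(2)` is isomorphic to `PSU₃(3)`; assembled from the kernel-checked
tables.
-/

set_option autoImplicit false

namespace Cfsg.Agent.Lib.Helper60.G22

open Cfsg Cfsg.Lie Cfsg.Agent.Lib.Helper60.Cert Cfsg.Agent.Lib.Helper60.G2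
open scoped Matrix

section chev

variable {F : Type*} [Field F] [Fintype F] (e : ZMod 2 ≃+* F)

instance : Finite (GLF F) := inferInstance

/-- the group generated by the packed generators (the Chevalley group) -/
def Gg : Subgroup (GLF F) := genGrp model (ψ e) gN 13
/-- the group generated by two commutators -/
def Kg : Subgroup (GLF F) := genGrp model (ψ e) Kgen 2

theorem inv_spec : ∀ l < 13, mulP (gN l) (gI l) = oneP ∧ mulP (gI l) (gN l) = oneP := by
  intro l hl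
  have h := allBelow_spec _ _ inv_ok l hl
  simp only [chkInv, Bool.and_eq_true] at h
  exact ⟨Nat.eq_of_beq_eq_true h.1, Nat.eq_of_beq_eq_true h.2⟩

theorem hexG : ∀ l < 13, ∃ g, ψ e g = model.toM (gN l) := fun l hl =>
  exists_of_inv e (inv_spec l hl).1 (inv_spec l hl).2

theorem gN_real : ∀ l < 13, Real model (ψ e) (Gg e) (gN l) := gen_real (hexG e)

theorem gI_real : ∀ l < 13, Real model (ψ e) (Gg e) (gI l) := fun l hl =>
  Cfsg.Agent.Lib.Helper60.F4.real_inv (gN_real e l hl) (inv_spec l hl).1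

theorem Kgen_real_G : ∀ l < 2, Real model (ψ e) (Gg e) (Kgen l) := by
  obtain ⟨h1, h2, h3, h4, _⟩ := idx_lt
  intro l hl
  interval_cases l
  · exact ((((gN_real e ci0 h1).mul (gN_real e cj0 h2)).mul (gI_real e ci0 h1)).mul
      (gI_real e cj0 h2)).of_eq c0_ok.symm
  · exact ((((gN_real e ci1 h3).mul (gN_real e cj1 h4)).mul (gI_real e ci1 h3)).mul
      (gI_real e cj1 h4)).of_eq c1_ok.symm

theorem hexK : ∀ l < 2, ∃ g, ψ e g = model.toM (Kgen l) := by
  intro l hl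
  obtain ⟨g, _, hg⟩ := Kgen_real_G e l hl
  exact ⟨g, hg⟩

theorem Kgen_real_K : ∀ l < 2, Real model (ψ e) (Kg e) (Kgen l) := gen_real (hexK e)

theorem Kg_le_Gg : Kg e ≤ Gg e := genGrp_le (ψ_inj e) (Gg e) (Kgen_real_G e)

theorem KT_real : ∀ j < 6048, Real model (ψ e) (Kg e) (KT j) :=
  L_sup (D := KL) KLok (hexK e)

/-- the subgroup generated by the two commutators lies in the commutator subgroup -/
theorem Kg_le_comm : Kg e ≤ (commutator (Gg e)).map (Gg e).subtype := by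
  have key : ∀ {aL bL aI bI c : ℕ}, Real model (ψ e) (Gg e) aL → Real model (ψ e) (Gg e) bL →
      mulP aL aI = oneP → mulP bL bI = oneP → c = mulP (mulP (mulP aL bL) aI) bI →
      Real model (ψ e) ((commutator (Gg e)).map (Gg e).subtype) c := by
    intro aL bL aI bI c ha hb hai hbi hc
    obtain ⟨a, haL, hav⟩ := ha
    obtain ⟨b, hbL, hbv⟩ := hb
    refine ⟨a * b * a⁻¹ * b⁻¹, ?_, ?_⟩
    · have h1 : (⟨a, haL⟩ : Gg e) * ⟨b, hbL⟩ * (⟨a, haL⟩ : Gg e)⁻¹ * (⟨b, hbL⟩ : Gg e)⁻¹ ∈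
          commutator (Gg e) := comm_mem_comm _ _
      rw [Subgroup.mem_map]
      exact ⟨_, h1, rfl⟩
    · rw [map_mul, map_mul, map_mul, hav, hbv,
        Cfsg.Agent.Lib.Helper60.Ru.inv_val_of_chk (μ := model) hav hai,
        Cfsg.Agent.Lib.Helper60.Ru.inv_val_of_chk (μ := model) hbv hbi, hc]
      change _ = toMat _
      rw [toMat_mulP, toMat_mulP, toMat_mulP]
      rfl
  obtain ⟨h1, h2, h3, h4, _⟩ := idx_lt
  apply genGrp_le (ψ_inj e)
  intro l hl
  interval_cases l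
  · exact key (gN_real e ci0 h1) (gN_real e cj0 h2) (inv_spec ci0 h1).1 (inv_spec cj0 h2).1 c0_ok
  · exact key (gN_real e ci1 h3) (gN_real e cj1 h4) (inv_spec ci1 h3).1 (inv_spec cj1 h4).1 c1_ok

/-- conjugating the subgroup by a packed element with certificates -/
theorem conj_le {a : GLF F} {aP aI n0 n1 : ℕ} (hav : ψ e a = model.toM aP)
    (hai : mulP aP aI = oneP) (hn0 : n0 < 6048) (hn1 : n1 < 6048)
    (h0 : mulP (mulP aP (Kgen 0)) aI = KT n0) (h1 : mulP (mulP aP (Kgen 1)) aI = KT n1) :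
    ∀ k ∈ Kg e, a * k * a⁻¹ ∈ Kg e := by
  have key : ∀ {c n : ℕ}, Real model (ψ e) (Kg e) c → n < 6048 → mulP (mulP aP c) aI = KT n →
      Real model (ψ e) ((Kg e).comap (MulAut.conj a).toMonoidHom) c := by
    intro c n hc hn h
    obtain ⟨g, hg, hgv⟩ := hc
    obtain ⟨k', hk', hkv'⟩ := KT_real e n hn
    refine ⟨g, ?_, hgv⟩
    rw [Subgroup.mem_comap]
    change a * g * a⁻¹ ∈ Kg e
    have e' : a * g * a⁻¹ = k' := by
      apply ψ_inj e
      rw [map_mul, map_mul, hav, hgv,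
        Cfsg.Agent.Lib.Helper60.Ru.inv_val_of_chk (μ := model) hav hai, hkv', ← h]
      change _ = toMat _
      rw [toMat_mulP, toMat_mulP]
      rfl
    rw [e']
    exact hk'
  have hle : Kg e ≤ (Kg e).comap (MulAut.conj a).toMonoidHom := by
    apply genGrp_le (ψ_inj e)
    intro l hl
    interval_cases l
    · exact key (Kgen_real_K e 0 (by norm_num)) hn0 h0
    · exact key (Kgen_real_K e 1 (by norm_num)) hn1 h1
  intro k hk
  exact hle hk

/-- the commutator subgroup lies in the subgroup generated by the two commutators -/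
theorem comm_le_Kg : commutator (Gg e) ≤ (Kg e).subgroupOf (Gg e) := by
  obtain ⟨_, _, _, _, h5⟩ := idx_lt
  obtain ⟨hk0, hk1, hk2, hk3⟩ := kn_lt
  obtain ⟨e0, e1, e2, e3⟩ := n1_ok
  obtain ⟨a, haG, hav⟩ := gN_real e gaI h5
  have hai : ψ e a⁻¹ = model.toM (gI gaI) :=
    Cfsg.Agent.Lib.Helper60.Ru.inv_val_of_chk (μ := model) hav (inv_spec gaI h5).1
  have hn1 := conj_le e hav (inv_spec gaI h5).1 hk0 hk1 e0 e1
  have hn2 := conj_le e hai (inv_spec gaI h5).2 hk2 hk3 e2 e3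
  rw [inv_inv] at hn2
  refine comm_le_of_cyclic (Gg e) (Kg e) (Kg_le_Gg e) {g | ∃ l < 13, ψ e g = model.toM (gN l)}
    rfl a haG hn1 hn2 ?_
  rintro s ⟨l, hl, hs⟩
  have h := allBelow_spec _ _ f1_ok l hl
  simp only [chkF1, Bool.and_eq_true, Nat.blt_eq] at h
  obtain ⟨k, hk, hkv⟩ := KT_real e (f1j l) h.2
  refine ⟨k, hk, f1e l, ?_⟩
  apply ψ_inj e
  rw [hs, map_mul, map_pow, hkv, hav, Nat.eq_of_beq_eq_true h.1]
  change toMat _ = _
  rw [toMat_mulP]
  change _ * model.toM _ = _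
  rw [model.toM_powP]
  rfl

theorem comm_eq : commutator (Gg e) = (Kg e).subgroupOf (Gg e) :=
  le_antisymm (comm_le_Kg e) (subgroupOf_le_comm (Gg e) (Kg e) (Kg_le_comm e))

end chev

/-! ### the special unitary group -/

instance : Finite SL9 := inferInstance

theorem hF9 : Fintype.card F9 = 3 ^ 2 := card_F9

theorem hexS : ∀ l < 2, ∃ g, ψS g = modelS.toM (Sgen l) := by
  intro l hl
  interval_cases l
  · exact exists_SL9 Sdet_ok.1
  · exact exists_SL9 Sdet_ok.2

/-- the group generated by the two packed unitary matrices -/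
def Sg : Subgroup SL9 := genGrp modelS ψS Sgen 2

theorem card_Sg : Nat.card Sg = 6048 := card_L (D := SL) SLok ψS_inj hexS

theorem Sgram_ok :
    (toS (Sgen 0))ᵀ * (toS (Sgen 0)).map (Cfsg.Agent.Lib.Helper45.sigmaQ hF9) = 1 ∧
    (toS (Sgen 1))ᵀ * (toS (Sgen 1)).map (Cfsg.Agent.Lib.Helper45.sigmaQ hF9) = 1 := by
  decide +kernel

theorem Sg_le_SU : Sg ≤ Cfsg.SU 3 F9 3 := by
  apply genGrp_le ψS_inj
  intro l hl
  interval_cases l
  · exact ⟨⟨toS (Sgen 0), Sdet_ok.1⟩,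
      (Cfsg.Agent.Lib.Helper45.isHermIso_iff_gram hF9 (toS (Sgen 0))).mpr Sgram_ok.1, rfl⟩
  · exact ⟨⟨toS (Sgen 1), Sdet_ok.2⟩,
      (Cfsg.Agent.Lib.Helper45.isHermIso_iff_gram hF9 (toS (Sgen 1))).mpr Sgram_ok.2, rfl⟩

theorem card_SU9 {K : Type*} [Field K] [Fintype K] (hK : Fintype.card K = 3 ^ 2) :
    Nat.card (Cfsg.SU 3 K 3) = 6048 := by
  have h := Cfsg.Agent.Lib.Helper45.card_SU hK 3 (by norm_num)
  rw [Finset.prod_range_succ, Finset.prod_range_succ, Finset.prod_range_one] at h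
  norm_num at h
  omega

theorem Sg_eq_SU : Sg = Cfsg.SU 3 F9 3 :=
  Subgroup.eq_of_le_of_card_ge Sg_le_SU (by rw [card_Sg, card_SU9 hF9])

/-! ### transfer along a field isomorphism -/

section transfer

variable {K K' : Type*} [Field K] [Field K']

theorem herm_map (f : K ≃+* K') (n q : ℕ) (u v : Fin n → K) :
    Cfsg.hermForm n K' q (f ∘ u) (f ∘ v) = f (Cfsg.hermForm n K q u v) := by
  simp [Cfsg.hermForm, map_sum, map_mul, map_pow]

theorem su_map_mem (f : K ≃+* K') (n q : ℕ) (g : Matrix.SpecialLinearGroup (Fin n) K)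
    (hg : g ∈ Cfsg.SU n K q) : Cfsg.Agent.Lib.Helper5.slCongr f g ∈ Cfsg.SU n K' q := by
  intro u v
  have hu : u = f ∘ (f.symm ∘ u) := by funext i; simp
  have hv : v = f ∘ (f.symm ∘ v) := by funext i; simp
  have hm : ∀ w : Fin n → K,
      (Cfsg.slToMat n K' (Cfsg.Agent.Lib.Helper5.slCongr f g)) *ᵥ (f ∘ w) =
        f ∘ ((Cfsg.slToMat n K g) *ᵥ w) := by
    intro w
    funext i
    exact (RingHom.map_mulVec (f : K →+* K') (g : Matrix (Fin n) (Fin n) K) w i).symm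
  rw [hu, hv, hm, hm, herm_map, herm_map]
  exact congrArg f (hg _ _)

theorem su_map_eq (f : K ≃+* K') (n q : ℕ) :
    (Cfsg.SU n K q).map (Cfsg.Agent.Lib.Helper5.slCongr f).toMonoidHom = Cfsg.SU n K' q := by
  apply le_antisymm
  · rintro h ⟨g, hg, rfl⟩
    exact su_map_mem f n q g hg
  · intro h hh
    refine ⟨Cfsg.Agent.Lib.Helper5.slCongr f.symm h, su_map_mem f.symm n q h hh, ?_⟩
    apply Subtype.ext
    ext i j
    simp [Cfsg.Agent.Lib.Helper5.slCongr, Matrix.SpecialLinearGroup.map_apply_coe]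

theorem su_congr (f : K ≃+* K') (n q : ℕ) : Nonempty (Cfsg.SU n K q ≃* Cfsg.SU n K' q) :=
  ⟨((Cfsg.Agent.Lib.Helper5.slCongr f).subgroupMap (Cfsg.SU n K q)).trans
    (MulEquiv.subgroupCongr (su_map_eq f n q))⟩

end transfer

/-! ### the isomorphism -/

theorem Kg_iso_Sg {F : Type*} [Field F] [Fintype F] (e : ZMod 2 ≃+* F) :
    Nonempty (Kg e ≃* Sg) :=
  iso_of_tables (μ := model) (μ' := modelS) (ψ := ψ e) (ψ' := ψS) (D := KL)
    (D' := SL) KLok SLok rfl rfl Snx_eq (ψ_inj e) ψS_inj (hexK e) hexS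

theorem main_Gg {F K : Type*} [Field F] [Fintype F] [Field K] [Fintype K] (e : ZMod 2 ≃+* F)
    (hK : Fintype.card K = 9) :
    Nonempty (commutator (Gg e) ≃* Cfsg.PSU 3 K 3) := by
  have e1 : commutator (Gg e) ≃* Kg e :=
    (MulEquiv.subgroupCongr (comm_eq e)).trans (Subgroup.subgroupOfEquivOfLe (Kg_le_Gg e))
  obtain ⟨e2⟩ := Kg_iso_Sg e
  have e3 : Sg ≃* Cfsg.SU 3 F9 3 := MulEquiv.subgroupCongr Sg_eq_SU
  have f : F9 ≃+* K := FiniteField.ringEquivOfCardEq (by rw [card_F9, hK])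
  obtain ⟨e4⟩ := su_congr f 3 3
  have hK' : Fintype.card K = 3 ^ 2 := by rw [hK]; norm_num
  have hc : Subgroup.center (Cfsg.SU 3 K 3) = ⊥ := by
    apply Subgroup.eq_bot_of_card_eq
    rw [Cfsg.Agent.Lib.Helper45.card_center_SU hK' 3 (by norm_num)]
    decide
  have e5 : Cfsg.PSU 3 K 3 ≃* Cfsg.SU 3 K 3 :=
    (QuotientGroup.quotientMulEquivOfEq hc).trans QuotientGroup.quotientBot
  exact ⟨(((e1.trans e2).trans e3).trans e4).trans e5.symm⟩

theorem main_of_eq {F K : Type*} [Field F] [Fintype F] [Field K] [Fintype K]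
    (e : ZMod 2 ≃+* F) (hK : Fintype.card K = 9) {A : Subgroup (GLF F)} (h : A = Gg e) :
    Nonempty (commutator A ≃* Cfsg.PSU 3 K 3) := by
  subst h
  exact main_Gg e hK

/-- the derived subgroup of `G₂(2)` -/
theorem main {F K : Type*} [Field F] [Fintype F] [Field K] [Fintype K]
    (hF : Fintype.card F = 2) (hK : Fintype.card K = 9) :
    Nonempty (commutator (chevG2.group F) ≃* Cfsg.PSU 3 K 3) :=
  main_of_eq (ZMod.ringEquivOfPrime F Nat.prime_two hF) hK
    (group_eq (ZMod.ringEquivOfPrime F Nat.prime_two hF))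

end Cfsg.Agent.Lib.Helper60.G22
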