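import Cfsg.Agent.Lib.Helper60.F4.Sub
import Cfsg.Agent.Lib.Helper60.J1.Mat

/-!
Packed arithmetic for 14 × 14 matrices over `ZMod 2`: a matrix is one natural number,
entry `(i, j)` being the bit number `14 * i + j`; as a model for the generic
certificate layer.
-/

set_option autoImplicit false

namespace Cfsg.Agent.Lib.Helper60.G22

open Cfsg.Agent.Lib.Helper60.J1 (horner horner_lt horner_digit)
open Cfsg.Agent.Lib.Helper60.Cert

abbrev Mat := Matrix (Fin 14) (Fin 14) (ZMod 2)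

/-- bit number `n` of `x` -/
def dg (x n : ℕ) : ℕ := Nat.land (Nat.shiftRight x n) 1

theorem dg_eq (x n : ℕ) : dg x n = x / 2 ^ n % 2 := by
  unfold dg
  change (x >>> n) &&& 1 = _
  rw [Nat.shiftRight_eq_div_pow]
  exact Nat.and_one_is_mod _

theorem dg_lt (x n : ℕ) : dg x n < 2 := by
  rw [dg_eq]
  exact Nat.mod_lt _ (by norm_num)

/-- the matrix coded by a natural number -/
def toMat (x : ℕ) : Mat := Matrix.of fun i j => ((dg x (14 * i.val + j.val) : ℕ) : ZMod 2)

/-- entry `(i, j)` of the product -/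
def ent (x y i j : ℕ) : ℕ :=
  Nat.mod (Nat.add (Nat.add (Nat.add (Nat.add (Nat.add (Nat.add (Nat.add (Nat.add (Nat.add (Nat.add (Nat.add (Nat.add (Nat.add (Nat.mul (dg x (Nat.add (Nat.mul 14 i) 0)) (dg y (Nat.add (Nat.mul 14 0) j)))
    (Nat.mul (dg x (Nat.add (Nat.mul 14 i) 1)) (dg y (Nat.add (Nat.mul 14 1) j))))
    (Nat.mul (dg x (Nat.add (Nat.mul 14 i) 2)) (dg y (Nat.add (Nat.mul 14 2) j))))
    (Nat.mul (dg x (Nat.add (Nat.mul 14 i) 3)) (dg y (Nat.add (Nat.mul 14 3) j))))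
    (Nat.mul (dg x (Nat.add (Nat.mul 14 i) 4)) (dg y (Nat.add (Nat.mul 14 4) j))))
    (Nat.mul (dg x (Nat.add (Nat.mul 14 i) 5)) (dg y (Nat.add (Nat.mul 14 5) j))))
    (Nat.mul (dg x (Nat.add (Nat.mul 14 i) 6)) (dg y (Nat.add (Nat.mul 14 6) j))))
    (Nat.mul (dg x (Nat.add (Nat.mul 14 i) 7)) (dg y (Nat.add (Nat.mul 14 7) j))))
    (Nat.mul (dg x (Nat.add (Nat.mul 14 i) 8)) (dg y (Nat.add (Nat.mul 14 8) j))))
    (Nat.mul (dg x (Nat.add (Nat.mul 14 i) 9)) (dg y (Nat.add (Nat.mul 14 9) j))))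
    (Nat.mul (dg x (Nat.add (Nat.mul 14 i) 10)) (dg y (Nat.add (Nat.mul 14 10) j))))
    (Nat.mul (dg x (Nat.add (Nat.mul 14 i) 11)) (dg y (Nat.add (Nat.mul 14 11) j))))
    (Nat.mul (dg x (Nat.add (Nat.mul 14 i) 12)) (dg y (Nat.add (Nat.mul 14 12) j))))
    (Nat.mul (dg x (Nat.add (Nat.mul 14 i) 13)) (dg y (Nat.add (Nat.mul 14 13) j)))) 2

theorem ent_lt (x y i j : ℕ) : ent x y i j < 2 := Nat.mod_lt _ (by norm_num)

theorem ent_eq (x y i j : ℕ) : ent x y i j =
    (∑ k ∈ Finset.range 14, dg x (14 * i + k) * dg y (14 * k + j)) % 2 := by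
  simp only [Finset.sum_range_succ, Finset.sum_range_zero, zero_add]
  rfl

/-- row `i` of the product -/
def row (x y i : ℕ) : ℕ :=
  Nat.add (ent x y i 0) (Nat.mul 2 (Nat.add (ent x y i 1) (Nat.mul 2 (Nat.add (ent x y i 2) (Nat.mul 2 (Nat.add (ent x y i 3) (Nat.mul 2 (Nat.add (ent x y i 4) (Nat.mul 2 (Nat.add (ent x y i 5) (Nat.mul 2 (Nat.add (ent x y i 6) (Nat.mul 2 (Nat.add (ent x y i 7) (Nat.mul 2 (Nat.add (ent x y i 8) (Nat.mul 2 (Nat.add (ent x y i 9) (Nat.mul 2 (Nat.add (ent x y i 10) (Nat.mul 2 (Nat.add (ent x y i 11) (Nat.mul 2 (Nat.add (ent x y i 12) (Nat.mul 2 (ent x y i 13))))))))))))))))))))))))))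

/-- the packed product -/
def mulP (x y : ℕ) : ℕ :=
  Nat.add (row x y 0) (Nat.mul 16384 (Nat.add (row x y 1) (Nat.mul 16384 (Nat.add (row x y 2) (Nat.mul 16384 (Nat.add (row x y 3) (Nat.mul 16384 (Nat.add (row x y 4) (Nat.mul 16384 (Nat.add (row x y 5) (Nat.mul 16384 (Nat.add (row x y 6) (Nat.mul 16384 (Nat.add (row x y 7) (Nat.mul 16384 (Nat.add (row x y 8) (Nat.mul 16384 (Nat.add (row x y 9) (Nat.mul 16384 (Nat.add (row x y 10) (Nat.mul 16384 (Nat.add (row x y 11) (Nat.mul 16384 (Nat.add (row x y 12) (Nat.mul 16384 (row x y 13))))))))))))))))))))))))))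

theorem row_eq (x y i : ℕ) : row x y i = horner 2 [ent x y i 0, ent x y i 1, ent x y i 2, ent x y i 3, ent x y i 4, ent x y i 5, ent x y i 6, ent x y i 7, ent x y i 8, ent x y i 9, ent x y i 10, ent x y i 11, ent x y i 12, ent x y i 13] := by
  simp only [horner, mul_zero, add_zero]
  rfl

theorem mulP_eq (x y : ℕ) : mulP x y = horner (2 ^ 14) [row x y 0, row x y 1, row x y 2, row x y 3, row x y 4, row x y 5, row x y 6, row x y 7, row x y 8, row x y 9, row x y 10, row x y 11, row x y 12, row x y 13] := by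
  simp only [horner, mul_zero, add_zero]
  rfl

theorem row_lt (x y i : ℕ) : row x y i < 2 ^ 14 := by
  rw [row_eq]
  refine horner_lt 2 _ ?_
  intro c hc
  simp only [List.mem_cons, List.not_mem_nil, or_false] at hc
  rcases hc with h | h | h | h | h | h | h | h | h | h | h | h | h | h <;> (rw [h]; exact ent_lt _ _ _ _)

theorem row_digit (x y i j : ℕ) (hj : j < 14) : row x y i / 2 ^ j % 2 = ent x y i j := by
  rw [row_eq, horner_digit]
  · interval_cases j <;> simp only [List.getD_cons_succ, List.getD_cons_zero]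
  · intro c hc
    simp only [List.mem_cons, List.not_mem_nil, or_false] at hc
    rcases hc with h | h | h | h | h | h | h | h | h | h | h | h | h | h <;> (rw [h]; exact ent_lt _ _ _ _)

theorem mulP_row (x y i : ℕ) (hi : i < 14) : mulP x y / (2 ^ 14) ^ i % 2 ^ 14 = row x y i := by
  rw [mulP_eq, horner_digit]
  · interval_cases i <;> simp only [List.getD_cons_succ, List.getD_cons_zero]
  · intro c hc
    simp only [List.mem_cons, List.not_mem_nil, or_false] at hc
    rcases hc with h | h | h | h | h | h | h | h | h | h | h | h | h | h <;> (rw [h]; exact row_lt _ _ _)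

theorem dg_mulP (x y i j : ℕ) (hi : i < 14) (hj : j < 14) :
    dg (mulP x y) (14 * i + j) = ent x y i j := by
  rw [dg_eq, ← row_digit x y i j hj, ← mulP_row x y i hi]
  rw [pow_add, pow_mul, ← Nat.div_div_eq_div_mul]
  generalize mulP x y / (2 ^ 14) ^ i = m
  rw [← Nat.mod_mul_right_div_self, ← Nat.mod_mul_right_div_self (m % 2 ^ 14)]
  congr 1
  have hd : 2 ^ j * 2 ∣ 2 ^ 14 := by
    rw [← pow_succ]
    exact pow_dvd_pow 2 (by omega)
  exact (Nat.mod_mod_of_dvd m hd).symm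

theorem toMat_mulP (x y : ℕ) : toMat (mulP x y) = toMat x * toMat y := by
  ext i j
  rw [Matrix.mul_apply]
  have hs : ∑ k : Fin 14, toMat x i k * toMat y k j =
      ∑ k ∈ Finset.range 14, ((dg x (14 * i.val + k) : ℕ) : ZMod 2) *
        ((dg y (14 * k + j.val) : ℕ) : ZMod 2) :=
    Fin.sum_univ_eq_sum_range (fun k => ((dg x (14 * i.val + k) : ℕ) : ZMod 2) *
        ((dg y (14 * k + j.val) : ℕ) : ZMod 2)) 14
  rw [hs]
  simp only [toMat, Matrix.of_apply]
  rw [dg_mulP x y i.val j.val i.isLt j.isLt, ent_eq, ZMod.natCast_mod]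
  push_cast
  rfl

/-- the identity matrix, packed -/
def oneP : ℕ := 50218346425403791685383745309529419995200533025103911354369

theorem toMat_oneP : toMat oneP = 1 := by decide +kernel

/-- reduction to the 196 significant bits -/
def canon (x : ℕ) : ℕ := Nat.mod x (Nat.pow 2 196)

theorem mod_pow_eq_of_digits (a b : ℕ) (n : ℕ) (h : ∀ p < n, a / 2 ^ p % 2 = b / 2 ^ p % 2) :
    a % 2 ^ n = b % 2 ^ n := by
  induction n with
  | zero => simp [Nat.mod_one]
  | succ n ih =>
    rw [Nat.mod_pow_succ, Nat.mod_pow_succ, ih (fun p hp => h p (by omega)), h n (by omega)]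

theorem canon_eq (a b : ℕ) (h : toMat a = toMat b) : canon a = canon b := by
  apply mod_pow_eq_of_digits
  intro p hp
  rw [← dg_eq, ← dg_eq]
  have h1 := congrFun (congrFun h ⟨p / 14, by omega⟩) ⟨p % 14, Nat.mod_lt _ (by norm_num)⟩
  simp only [toMat, Matrix.of_apply] at h1
  rw [Nat.div_add_mod] at h1
  have h2 := (ZMod.natCast_eq_natCast_iff' _ _ _).mp h1
  rw [Nat.mod_eq_of_lt (dg_lt a p), Nat.mod_eq_of_lt (dg_lt b p)] at h2
  exact h2

/-- the model of packed matrices -/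
def model : Model Mat where
  toM := toMat
  mulP := mulP
  oneP := oneP
  key := canon
  toM_mul := toMat_mulP
  toM_one := toMat_oneP
  key_eq := canon_eq

attribute [irreducible] mulP

end Cfsg.Agent.Lib.Helper60.G22
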